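import Cfsg.Agent.H604.Spr.Plus

/-!
# S3938: the row `PΩ^+_16(2)` (helper172)

`s = neg 7 + neg 1`, helper604's `core_plus`.
-/

set_option autoImplicit false

namespace Cfsg.Agent.H172.TH

open Cfsg Cfsg.Geo
open Cfsg.Agent.H424.Spr (Spr)
open Cfsg.Agent.H659.CovCore (S5948Stmt)

variable {F : Type} [Field F] [Fintype F]

/-- **`PΩ⁺₁₆(2)`.** -/
theorem spr_plus_sixteen (hP : S5948Stmt.{0}) (hF : Fintype.card F = 2) : Spr (POmega F (quadFormPlus 8 F)) := by
  have hpp : IsPrimePow (Fintype.card F) := Fintype.isPrimePow_card_of_field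
  refine H604.Spr.core_plus hP (a := 7) (e := 1) (N := 3) rfl (by norm_num) (by norm_num) (by norm_num) (by norm_num) ?_
    (H906.Cov.exists_num hpp (by norm_num) (by norm_num) (by norm_num) (by norm_num) (by norm_num))
    (by rw [hF]; norm_num) ?_
  · intro r hr h
    exact (Nat.prime_dvd_prime_iff_eq hr Nat.prime_two).1 (by simpa using h)
  · intro j hj hj2
    rw [hF]
    interval_cases j
    decide

end Cfsg.Agent.H172.TH
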